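import Mathlib
import Cfsg.Prelude.Def_OddOrderLocal
import Cfsg.Agent.Lib.Helper35.BG.Basic
import Cfsg.Agent.Lib.Helper90.SylowCount

/-!
Small group-theoretic utilities for the Bender–Glauberman statement S1367 (helper66):
subgroups of prime order, their joins, and an automorphism of an elementary abelian group of
order `q ^ 2` fixing three lines.
-/

set_option autoImplicit false

namespace Cfsg.Agent.Lib.Helper66.BG

open Cfsg

variable {G : Type*} [Group G]

/-- A subgroup of prime order is generated by each of its non-identity elements. -/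
theorem zpowers_eq_of_mem_of_card_prime [Finite G] {X : Subgroup G} (hq : (Nat.card X).Prime)
    {x : G} (hx : x ∈ X) (hx1 : x ≠ 1) : Subgroup.zpowers x = X ∧ orderOf x = Nat.card X := by
  have hle : Subgroup.zpowers x ≤ X := by
    rw [Subgroup.zpowers_le]; exact hx
  have hd : orderOf x ∣ Nat.card X := by
    rw [← Nat.card_zpowers]; exact Subgroup.card_dvd_of_le hle
  have ho : orderOf x = Nat.card X := by
    rcases (Nat.dvd_prime hq).mp hd with h | h
    · exact absurd (orderOf_eq_one_iff.mp h) hx1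
    · exact h
  refine ⟨Subgroup.eq_of_le_of_card_ge hle ?_, ho⟩
  rw [Nat.card_zpowers, ho]

/-- A subgroup of prime order has a generator. -/
theorem exists_gen_of_card_prime [Finite G] {X : Subgroup G} (hq : (Nat.card X).Prime) :
    ∃ x : G, x ∈ X ∧ x ≠ 1 ∧ orderOf x = Nat.card X ∧ Subgroup.zpowers x = X := by
  have hne : X ≠ ⊥ := by
    intro h
    rw [h, Subgroup.card_bot] at hq
    exact Nat.not_prime_one hq
  obtain ⟨x, hx1⟩ := (Subgroup.ne_bot_iff_exists_ne_one.mp hne)
  have hxX : (x : G) ∈ X := x.2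
  have hx1' : (x : G) ≠ 1 := fun h => hx1 (Subtype.ext h)
  obtain ⟨h1, h2⟩ := zpowers_eq_of_mem_of_card_prime hq hxX hx1'
  exact ⟨x, hxX, hx1', h2, h1⟩

/-- A subgroup of prime order is commutative. -/
theorem commute_of_card_prime [Finite G] {X : Subgroup G} (hq : (Nat.card X).Prime)
    {a b : G} (ha : a ∈ X) (hb : b ∈ X) : a * b = b * a := by
  obtain ⟨x, -, -, -, hgen⟩ := exists_gen_of_card_prime hq
  rw [← hgen] at ha hb
  obtain ⟨m, rfl⟩ := Subgroup.mem_zpowers_iff.mp ha
  obtain ⟨n, rfl⟩ := Subgroup.mem_zpowers_iff.mp hb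
  rw [← zpow_add, ← zpow_add, add_comm]

/-- Two distinct subgroups of the same prime order meet trivially. -/
theorem inf_eq_bot_of_card_prime_ne [Finite G] {B₁ B₂ : Subgroup G} {q : ℕ} (hq : q.Prime)
    (h1 : Nat.card B₁ = q) (h2 : Nat.card B₂ = q) (hne : B₁ ≠ B₂) : B₁ ⊓ B₂ = ⊥ := by
  by_contra h
  have hd : Nat.card (B₁ ⊓ B₂ : Subgroup G) ∣ q := h1 ▸ Subgroup.card_dvd_of_le inf_le_left
  rcases (Nat.dvd_prime hq).mp hd with hc | hc
  · exact h (Subgroup.card_eq_one.mp hc)
  · have e1 : B₁ ⊓ B₂ = B₁ := Subgroup.eq_of_le_of_card_ge inf_le_left (by rw [hc, h1])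
    have e2 : B₁ ⊓ B₂ = B₂ := Subgroup.eq_of_le_of_card_ge inf_le_right (by rw [hc, h2])
    exact hne (e1.symm.trans e2)

/-- Elements of the join of two elementwise commuting subgroups are products. -/
theorem mem_sup_of_comm {H K : Subgroup G}
    (hc : ∀ h ∈ H, ∀ k ∈ K, h * k = k * h) {x : G} (hx : x ∈ H ⊔ K) :
    ∃ h ∈ H, ∃ k ∈ K, x = h * k := by
  let T : Subgroup G :=
    { carrier := {x | ∃ h ∈ H, ∃ k ∈ K, x = h * k}
      mul_mem' := by
        rintro _ _ ⟨h, hh, k, hk, rfl⟩ ⟨h', hh', k', hk', rfl⟩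
        refine ⟨h * h', H.mul_mem hh hh', k * k', K.mul_mem hk hk', ?_⟩
        calc h * k * (h' * k') = h * (k * h') * k' := by group
          _ = h * (h' * k) * k' := by rw [hc h' hh' k hk]
          _ = h * h' * (k * k') := by group
      one_mem' := ⟨1, H.one_mem, 1, K.one_mem, by simp⟩
      inv_mem' := by
        rintro _ ⟨h, hh, k, hk, rfl⟩
        refine ⟨h⁻¹, H.inv_mem hh, k⁻¹, K.inv_mem hk, ?_⟩
        have := hc h⁻¹ (H.inv_mem hh) k⁻¹ (K.inv_mem hk)
        rw [mul_inv_rev, this] }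
  have hH : H ≤ T := fun h hh => ⟨h, hh, 1, K.one_mem, by simp⟩
  have hK : K ≤ T := fun k hk => ⟨1, H.one_mem, k, hk, by simp⟩
  exact (sup_le hH hK) hx

/-- The join of two distinct elementwise commuting subgroups of prime order `q` is elementary
abelian of order `q ^ 2`. -/
theorem ea_sup_of_card_prime [Finite G] {X X₀ : Subgroup G} {q : ℕ} (hq : q.Prime)
    (h1 : Nat.card X = q) (h2 : Nat.card X₀ = q) (hne : X ≠ X₀)
    (hc : ∀ a ∈ X, ∀ b ∈ X₀, a * b = b * a) :
    IsElementaryAbelian q (X ⊔ X₀) ∧ Nat.card (X ⊔ X₀ : Subgroup G) = q ^ 2 := by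
  have hq1 : (Nat.card X).Prime := h1 ▸ hq
  have hq2 : (Nat.card X₀).Prime := h2 ▸ hq
  have hcomm : ∀ a ∈ X ⊔ X₀, ∀ b ∈ X ⊔ X₀, a * b = b * a := by
    intro a ha b hb
    obtain ⟨x, hx, z, hz, rfl⟩ := mem_sup_of_comm hc ha
    obtain ⟨x', hx', z', hz', rfl⟩ := mem_sup_of_comm hc hb
    have e1 := commute_of_card_prime hq1 hx hx'
    have e2 := commute_of_card_prime hq2 hz hz'
    have e3 := hc x hx z' hz'
    have e4 := hc x' hx' z hz
    calc x * z * (x' * z') = x * (z * x') * z' := by group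
      _ = x * (x' * z) * z' := by rw [e4]
      _ = (x * x') * (z * z') := by group
      _ = (x' * x) * (z' * z) := by rw [e1, e2]
      _ = x' * (x * z') * z := by group
      _ = x' * (z' * x) * z := by rw [e3]
      _ = x' * z' * (x * z) := by group
  have hexp : ∀ a ∈ X ⊔ X₀, a ^ q = 1 := by
    intro a ha
    obtain ⟨x, hx, z, hz, rfl⟩ := mem_sup_of_comm hc ha
    have hxq : x ^ q = 1 := by
      have := pow_card_eq_one' (G := X) (x := ⟨x, hx⟩)
      rw [h1] at this
      exact congrArg Subtype.val this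
    have hzq : z ^ q = 1 := by
      have := pow_card_eq_one' (G := X₀) (x := ⟨z, hz⟩)
      rw [h2] at this
      exact congrArg Subtype.val this
    have hxz : Commute x z := hc x hx z hz
    rw [hxz.mul_pow, hxq, hzq, one_mul]
  refine ⟨⟨⟨⟨fun a b => Subtype.ext (hcomm a a.2 b b.2)⟩⟩, hexp⟩, ?_⟩
  have hn : X ≤ Subgroup.normalizer (X₀ : Set G) := by
    intro x hx
    rw [Subgroup.mem_normalizer_iff]
    intro z
    constructor
    · intro hz
      have : x * z * x⁻¹ = z := by rw [hc x hx z hz]; group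
      rw [this]; exact hz
    · intro hz
      have e := hc x hx _ hz
      have e3 : x * (x * z * x⁻¹) = x * z := by rw [e]; group
      have e4 : x * z * x⁻¹ = z := mul_left_cancel e3
      rw [← e4]; exact hz
  have key := Cfsg.Agent.Lib.Helper90.card_sup_mul_card_inf_of_le_normalizer hn
  rw [inf_eq_bot_of_card_prime_ne hq h1 h2 hne, Subgroup.card_bot, mul_one, h1, h2] at key
  rw [key, sq]

end Cfsg.Agent.Lib.Helper66.BG
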